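import Cfsg.Agent.Lib.Helper86.SURows.EBase

/-!
# Piece E1 of the unitary rows: over the field with four elements a nondegenerate
`2`-decomposition refines to a nondegenerate `1`-decomposition with a larger stabiliser
-/

set_option autoImplicit false

namespace Cfsg.Agent.Lib.Helper86.SURows

open Cfsg Cfsg.Geo Matrix Module
open Cfsg.Agent.Lib.Helper94 Cfsg.Agent.Lib.Helper94.U
open Cfsg.Agent.Lib.Helper13 (frobQ frobQ_apply)
open scoped Kronecker MatrixGroups

variable {F : Type*} [Field F] {n : ℕ}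

theorem blocks_two_q2 [Fintype F] (hF : Fintype.card F = 2 ^ 2) {t : ℕ}
    (D : Fin t → Submodule F (Fin n → F))
    (hD : IsNondegenerateMDecomposition (hermForm n F 2) 2 D) :
    ∃ (t' : ℕ) (D' : Fin t' → Submodule F (Fin n → F)),
      IsNondegenerateMDecomposition (hermForm n F 2) 1 D' ∧
      decompositionStabilizer D ⊓ GU n F 2 ≤ decompositionStabilizer D' := by
  have H := stdB_hform (n := n) hF
  have h4 := f4Like hF
  have hND : ∀ i, ND (stdB n hF) (D i) := by
    intro i x hx hz
    by_contra h0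
    obtain ⟨y, hy, hxy⟩ := (hD.nondegenerate i x hx h0).2
    exact hxy (hz y hy)
  have hc := fun i => core H h4 (D i) (hND i) (hD.decomp.finrank_eq i)
  choose v hvW hvo hvs hvn using hc
  let w : Fin (t * 2) → (Fin n → F) :=
    fun j => v (finProdFinEquiv.symm j).1 (finProdFinEquiv.symm j).2
  have hw : ∀ i a, w (finProdFinEquiv (i, a)) = v i a := by
    intro i a
    simp only [w, Equiv.symm_apply_apply]
  have hon : ∀ j k, hermForm n F 2 (w j) (w k) = if j = k then 1 else 0 := by
    intro j k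
    obtain ⟨⟨i, a⟩, rfl⟩ := finProdFinEquiv.surjective j
    obtain ⟨⟨i', a'⟩, rfl⟩ := finProdFinEquiv.surjective k
    rw [hw, hw]
    simp only [EmbeddingLike.apply_eq_iff_eq, Prod.mk.injEq]
    by_cases hi : i = i'
    · subst hi
      have := hvo i a' a
      rw [stdB_apply] at this
      rw [this]
      simp only [true_and, eq_comm]
    · rw [if_neg (fun h => hi h.1)]
      exact hD.orthogonal i i' hi _ (hvW i a) _ (hvW i' a')
  have hsp : ⨆ j, Submodule.span F {w j} = ⊤ := by
    rw [eq_top_iff, ← hD.decomp.iSup_eq_top]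
    refine iSup_le fun i x hx => ?_
    have hmem : ∀ a, v i a ∈ ⨆ j, Submodule.span F {w j} := by
      intro a
      rw [← hw]
      exact (le_iSup (fun j => Submodule.span F {w j}) (finProdFinEquiv (i, a)))
        (Submodule.mem_span_singleton_self _)
    rw [hvs i x hx]
    exact Submodule.add_mem _ (Submodule.smul_mem _ _ (hmem 0)) (Submodule.smul_mem _ _ (hmem 1))
  have ht : 2 ≤ t * 2 := by
    have := hD.decomp.two_le
    omega
  have hfr := frame hF ht w hon hsp
  refine ⟨t * 2, fun j => Submodule.span F {w j}, hfr, ?_⟩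
  rintro g ⟨⟨s, hs⟩, hgU⟩
  apply mem_decStab_of_le hfr.decomp
  intro j
  obtain ⟨⟨i, a⟩, rfl⟩ := finProdFinEquiv.surjective j
  have h1 : (g : Matrix (Fin n) (Fin n) F) *ᵥ v i a ∈ D (s i) := by
    rw [← hs i, ← Matrix.toLin'_apply]
    exact Submodule.mem_map_of_mem (hvW i a)
  have h2 : stdB n hF ((g : Matrix (Fin n) (Fin n) F) *ᵥ v i a)
      ((g : Matrix (Fin n) (Fin n) F) *ᵥ v i a) ≠ 0 := by
    rw [stdB_apply]
    have h3 : hermForm n F 2 ((g : Matrix (Fin n) (Fin n) F) *ᵥ v i a)
      ((g : Matrix (Fin n) (Fin n) F) *ᵥ v i a) = hermForm n F 2 (v i a) (v i a) := hgU _ _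
    have h4 := hvo i a a
    rw [stdB_apply, if_pos rfl] at h4
    rw [h3, h4]
    exact one_ne_zero
  obtain ⟨b, hb⟩ := hvn (s i) _ h1 h2
  refine ⟨finProdFinEquiv (s i, b), ?_⟩
  show (Submodule.span F {w (finProdFinEquiv (i, a))}).map _ ≤
    Submodule.span F {w (finProdFinEquiv (s i, b))}
  rw [hw, hw, Submodule.map_span, Set.image_singleton, Submodule.span_le, Set.singleton_subset_iff,
    Matrix.toLin'_apply]
  exact hb

end Cfsg.Agent.Lib.Helper86.SURows
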