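import Cfsg.Agent.Lib.Helper86.SURows.EBase

/-!
# Piece E2 of the unitary rows: over the field with four elements a tensor decomposition
with a factor of dimension two stabilises a nondegenerate decomposition into two blocks
-/

set_option autoImplicit false

namespace Cfsg.Agent.Lib.Helper86.SURows

open Cfsg Cfsg.Geo Matrix Module
open Cfsg.Agent.Lib.Helper94 Cfsg.Agent.Lib.Helper94.U Cfsg.Agent.Lib.Helper94.Tens
open Cfsg.Agent.Lib.Helper13 (frobQ frobQ_apply)
open scoped Kronecker MatrixGroups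

variable {F : Type*} [Field F] {n : ℕ}

theorem hermForm_zero_left' (q : ℕ) (x : Fin n → F) : hermForm n F q 0 x = 0 := by
  simp [hermForm]

theorem tensor_two_q2 [Fintype F] (hF : Fintype.card F = 2 ^ 2) {m : ℕ} (hm : 0 < m)
    (e : Fin n ≃ Fin 2 × Fin m) (P : GL (Fin n) F)
    (f₁ : (Fin 2 → F) → (Fin 2 → F) → F) (f₂ : (Fin m → F) → (Fin m → F) → F)
    (h1 : IsUnitaryFormPow 2 f₁) (h2 : IsUnitaryFormPow 2 f₂)
    (hs : IsTensorFormStructure (fun x : F => x ^ 2) (hermForm n F 2) f₁ f₂ e P) :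
    ∃ D : Fin 2 → Submodule F (Fin n → F),
      IsNondegenerateMDecomposition (hermForm n F 2) m D ∧
      tensorProductSubgroup 2 m e P ⊓ GU n F 2 ≤ decompositionStabilizer D := by
  have H₁ := powB_hform hF f₁ h1
  have h4 := f4Like hF
  obtain ⟨v, -, hvo, -, hvn⟩ := core H₁ h4 ⊤
    (fun w _ hw => H₁.nondeg w (fun y => H₁.eq_zero_comm.1 (hw y trivial))) (by simp)
  have hvo' : ∀ a b, f₁ (v a) (v b) = if a = b then 1 else 0 := by
    intro a b
    have := hvo b a
    rw [powB_apply] at this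
    rw [this]
    simp only [eq_comm]
  obtain ⟨c, hc, hform⟩ := form_pt_pow hF _ f₁ f₂ h1 h2 e P hs
  -- `f₂ y · = 0` forces `y = 0`
  have hnd2 : ∀ y, (∀ y', f₂ y y' = 0) → y = 0 := by
    intro y hy
    by_contra h0
    obtain ⟨x, hx⟩ := (h2.nondegenerate y h0).2
    exact hx (hy x)
  have hkk : ∀ k y y', hermForm n F 2 (pt e P (v k) y) (pt e P (v k) y') = c * f₂ y y' := by
    intro k y y'
    rw [hform, hvo', if_pos rfl, one_mul]
  have hkl : ∀ k l y y', k ≠ l → hermForm n F 2 (pt e P (v k) y) (pt e P (v l) y') = 0 := by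
    intro k l y y' hkl
    rw [hform, hvo', if_neg hkl, zero_mul, mul_zero]
  have hinj : ∀ k, Function.Injective (pt e P (v k)) := by
    intro k
    rw [injective_iff_map_eq_zero]
    intro y hy
    apply hnd2
    intro y'
    have := hkk k y y'
    rw [hy, hermForm_zero_left'] at this
    exact (mul_eq_zero.mp this.symm).resolve_left hc
  let D : Fin 2 → Submodule F (Fin n → F) := fun k => LinearMap.range (pt e P (v k))
  have hfin : ∀ k, finrank F (D k) = m := by
    intro k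
    rw [LinearMap.finrank_range_of_inj (hinj k), Module.finrank_fin_fun]
  have hdisj : Disjoint (D 0) (D 1) := by
    rw [Submodule.disjoint_def]
    rintro z ⟨y, rfl⟩ ⟨y', hy'⟩
    have : y = 0 := by
      apply hnd2
      intro y''
      have e1 := hkk 0 y y''
      rw [← hy', hkl 1 0 y' y'' (by decide)] at e1
      exact (mul_eq_zero.mp e1.symm).resolve_left hc
    rw [this, map_zero]
  have hn : n = 2 * m := by
    have := Fintype.card_congr e
    simpa using this
  have htop : iSup D = ⊤ := by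
    have h3 : D 0 ⊔ D 1 = ⊤ := by
      apply Submodule.eq_top_of_finrank_eq
      have h5 := Submodule.finrank_sup_add_finrank_inf_eq (D 0) (D 1)
      rw [hdisj.eq_bot, finrank_bot, hfin, hfin] at h5
      rw [Module.finrank_fin_fun]
      omega
    rw [eq_top_iff, ← h3]
    exact sup_le (le_iSup D 0) (le_iSup D 1)
  have hdec : IsMDecomposition m D := by
    refine ⟨le_refl 2, hm, hfin, ?_, htop⟩
    rw [iSupIndep_pair (i := 0) (j := 1) (by decide) (by intro k; fin_cases k <;> simp)]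
    exact hdisj
  refine ⟨D, ⟨hdec, ?_, ?_⟩, ?_⟩
  · rintro k _ ⟨y, rfl⟩ h0
    have hy0 : y ≠ 0 := by
      rintro rfl
      exact h0 (map_zero _)
    obtain ⟨⟨x, hx⟩, ⟨x', hx'⟩⟩ := h2.nondegenerate y hy0
    refine ⟨⟨pt e P (v k) x, ⟨x, rfl⟩, ?_⟩, ⟨pt e P (v k) x', ⟨x', rfl⟩, ?_⟩⟩
    · rw [hkk]; exact mul_ne_zero hc hx
    · rw [hkk]; exact mul_ne_zero hc hx'
  · rintro k l hkl' _ ⟨y, rfl⟩ _ ⟨y', rfl⟩
    exact hkl k l y y' hkl'
  · rintro g ⟨hgT, hgU⟩
    obtain ⟨A, B', hAB⟩ := exists_of_mem e P g hgT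
    apply mem_decStab_of_le hdec
    intro k
    -- a pair with nonzero `f₂`
    have hy0 : (Pi.single (⟨0, hm⟩ : Fin m) (1 : F) : Fin m → F) ≠ 0 := by
      intro h
      have := congrFun h ⟨0, hm⟩
      simp at this
    obtain ⟨y', hy'⟩ := (h2.nondegenerate _ hy0).2
    set y0 : Fin m → F := Pi.single (⟨0, hm⟩ : Fin m) (1 : F) with hy0def
    have e1 : hermForm n F 2 ((g : Matrix (Fin n) (Fin n) F) *ᵥ pt e P (v k) y0)
        ((g : Matrix (Fin n) (Fin n) F) *ᵥ pt e P (v k) y') =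
        hermForm n F 2 (pt e P (v k) y0) (pt e P (v k) y') := hgU _ _
    rw [hAB, hAB, hform, hkk] at e1
    have hne : powB hF f₁ h1 ((A : Matrix (Fin 2) (Fin 2) F) *ᵥ v k)
        ((A : Matrix (Fin 2) (Fin 2) F) *ᵥ v k) ≠ 0 := by
      rw [powB_apply]
      intro h0
      rw [h0, zero_mul, mul_zero] at e1
      exact (mul_ne_zero hc hy') e1.symm
    obtain ⟨l, hl⟩ := hvn _ trivial hne
    obtain ⟨α, hα⟩ := Submodule.mem_span_singleton.mp hl
    refine ⟨l, ?_⟩
    rintro _ ⟨_, ⟨y, rfl⟩, rfl⟩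
    rw [Matrix.toLin'_apply, hAB, ← hα, map_smul, LinearMap.smul_apply, ← map_smul]
    exact ⟨_, rfl⟩

end Cfsg.Agent.Lib.Helper86.SURows
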