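import Cfsg.Agent.Lib.Helper5.SUAsch.Defs2
import Cfsg.Agent.Lib.Helper94.TensHerm

/-!
# Auxiliary lemmas for the pieces E1, E2 of the unitary rows (field with four elements)
-/

set_option autoImplicit false

namespace Cfsg.Agent.Lib.Helper86.SURows

open Cfsg Cfsg.Geo Matrix Module
open Cfsg.Agent.Lib.Helper94 Cfsg.Agent.Lib.Helper94.U
open Cfsg.Agent.Lib.Helper13 (frobQ frobQ_apply)
open scoped MatrixGroups

theorem toLin_injective {ι : Type} [Fintype ι] [DecidableEq ι] {F : Type*} [Field F] (g : GL ι F) :
    Function.Injective (Matrix.toLin' (g : Matrix ι ι F)) := by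
  intro x y hxy
  rw [Matrix.toLin'_apply, Matrix.toLin'_apply] at hxy
  have h : ∀ z : ι → F, ((g⁻¹ : GL ι F) : Matrix ι ι F) *ᵥ ((g : Matrix ι ι F) *ᵥ z) = z := by
    intro z
    rw [Matrix.mulVec_mulVec, ← Units.val_mul, inv_mul_cancel, Units.val_one, Matrix.one_mulVec]
  rw [← h x, hxy, h y]

/-- an invertible matrix mapping every member of an `m`-decomposition into some member stabilises
the decomposition -/
theorem mem_decStab_of_le {ι : Type} [Fintype ι] [DecidableEq ι] {F : Type*} [Field F] {t m : ℕ}
    {D : Fin t → Submodule F (ι → F)} (hD : IsMDecomposition m D) (g : GL ι F)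
    (h : ∀ i, ∃ k, (D i).map (Matrix.toLin' (g : Matrix ι ι F)) ≤ D k) :
    g ∈ decompositionStabilizer D := by
  choose s hs using h
  have hinj := toLin_injective g
  have heq : ∀ i, (D i).map (Matrix.toLin' (g : Matrix ι ι F)) = D (s i) := by
    intro i
    apply Submodule.eq_of_le_of_finrank_eq (hs i)
    rw [hD.finrank_eq, ← (Submodule.equivMapOfInjective _ hinj (D i)).finrank_eq, hD.finrank_eq]
  have sinj : Function.Injective s := by
    intro i k hik
    have h1 : (D i).map (Matrix.toLin' (g : Matrix ι ι F)) =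
        (D k).map (Matrix.toLin' (g : Matrix ι ι F)) := by rw [heq, heq, hik]
    have h2 := Submodule.map_injective_of_injective hinj h1
    refine hD.indep.injective (fun i h0 => ?_) h2
    have h3 := hD.finrank_eq i
    rw [h0, finrank_bot] at h3
    have := hD.pos
    omega
  exact ⟨Equiv.ofBijective s (Finite.injective_iff_bijective.mp sinj), fun i => heq i⟩

section core

variable {F V : Type*} [Field F] [AddCommGroup V] [Module F V]
variable {σ : F →+* F} {B : V →ₛₗ[σ] V →ₗ[F] F}

/-- orthonormal basis of a nondegenerate plane over the field with four elements; the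
non-isotropic vectors of the plane lie on the two axes -/
theorem core [FiniteDimensional F V] (H : HForm σ B) (h4 : F4Like σ) (W : Submodule F V)
    (hW : ND B W) (hfr : finrank F W = 2) :
    ∃ v : Fin 2 → V, (∀ a, v a ∈ W) ∧ (∀ a b, B (v a) (v b) = if a = b then 1 else 0) ∧
      (∀ x ∈ W, x = B (v 0) x • v 0 + B (v 1) x • v 1) ∧
      (∀ x ∈ W, B x x ≠ 0 → ∃ a, x ∈ Submodule.span F {v a}) := by
  obtain ⟨a, ha, b, hb, haa, hbb, hab, hsp⟩ := plane_basis H h4 W hW hfr
  have hba : B b a = 0 := H.eq_zero_comm.1 hab
  refine ⟨![a, b], ?_, ?_, ?_, ?_⟩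
  · intro i
    fin_cases i
    · exact ha
    · exact hb
  · intro i j
    fin_cases i <;> fin_cases j <;> simp [haa, hbb, hab, hba]
  · intro x hx
    simpa using hsp x hx
  · intro x hx hxx
    rcases plane_noniso H h4 haa hbb hab (hsp x hx) hxx with h0 | h0
    · refine ⟨1, ?_⟩
      have := hsp x hx
      rw [h0, zero_smul, zero_add] at this
      rw [this]
      exact Submodule.smul_mem _ _ (Submodule.subset_span (by simp))
    · refine ⟨0, ?_⟩
      have := hsp x hx
      rw [h0, zero_smul, add_zero] at this
      rw [this]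
      exact Submodule.smul_mem _ _ (Submodule.subset_span (by simp))

end core

section frame

variable {F : Type*} [Field F] [Fintype F] {n q : ℕ}

/-- an orthonormal spanning family gives a nondegenerate `1`-decomposition -/
theorem frame (hF : Fintype.card F = q ^ 2) {t' : ℕ} (ht : 2 ≤ t') (w : Fin t' → Fin n → F)
    (hon : ∀ j k, hermForm n F q (w j) (w k) = if j = k then 1 else 0)
    (hsp : ⨆ j, Submodule.span F {w j} = ⊤) :
    IsNondegenerateMDecomposition (hermForm n F q) 1 (fun j => Submodule.span F {w j}) := by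
  have hB : ∀ j k, stdB n hF (w j) (w k) = if j = k then 1 else 0 := by
    intro j k
    rw [stdB_apply, hon k j]
    simp only [eq_comm]
  have hne : ∀ j, w j ≠ 0 := by
    intro j h0
    have := hB j j
    rw [h0] at this
    simp at this
  have hli : LinearIndependent F w := by
    rw [Fintype.linearIndependent_iff]
    intro c hc k
    have := congrArg (stdB n hF (w k)) hc
    rw [map_sum, map_zero] at this
    simpa only [map_smul, hB, smul_eq_mul, mul_ite, mul_one, mul_zero, Finset.sum_ite_eq,
      Finset.mem_univ, if_true] using this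
  refine ⟨⟨ht, one_pos, fun j => finrank_span_singleton (hne j), hli.iSupIndep_span_singleton,
    hsp⟩, ?_, ?_⟩
  · intro j x hx hx0
    obtain ⟨c, rfl⟩ := Submodule.mem_span_singleton.mp hx
    have hc : c ≠ 0 := by
      rintro rfl
      simp at hx0
    refine ⟨⟨w j, Submodule.mem_span_singleton_self _, ?_⟩,
      ⟨w j, Submodule.mem_span_singleton_self _, ?_⟩⟩
    · show stdB n hF (c • w j) (w j) ≠ 0
      rw [map_smulₛₗ, LinearMap.smul_apply, hB, if_pos rfl, smul_eq_mul, mul_one]
      exact (map_ne_zero _).mpr hc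
    · show stdB n hF (w j) (c • w j) ≠ 0
      rw [map_smul, hB, if_pos rfl, smul_eq_mul, mul_one]
      exact hc
  · intro j k hjk x hx y hy
    obtain ⟨c, rfl⟩ := Submodule.mem_span_singleton.mp hx
    obtain ⟨d, rfl⟩ := Submodule.mem_span_singleton.mp hy
    show stdB n hF (d • w k) (c • w j) = 0
    rw [map_smul, map_smulₛₗ, LinearMap.smul_apply, hB, if_neg (Ne.symm hjk)]
    simp

end frame

end Cfsg.Agent.Lib.Helper86.SURows
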